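import Mathlib
import Cfsg.Agent.Helper29.Zas.M168

set_option autoImplicit false

namespace Cfsg.Agent.Helper29.Zas.M168

open Cfsg.Agent.Helper29.Zas

theorem range8 : List.range (7 + 1) = [0, 1, 2, 3, 4, 5, 6, 7] := by decide

theorem tab_gN_mul (g h : Equiv.Perm (Option (ZMod 7))) :
    tab 7 (gN 7 (g * h)) = compL (tab 7 (gN 7 g)) (tab 7 (gN 7 h)) := by
  unfold compL
  show List.map (gN 7 (g * h)) (List.range (7 + 1)) =
    List.map (fun m => look (tab 7 (gN 7 g)) m) (List.map (gN 7 h) (List.range (7 + 1)))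
  rw [List.map_map]
  apply List.map_congr_left
  intro m _
  simp only [Function.comp]
  rw [gN_mul]
  exact (look_tab 7 (gN 7 g) (gN_le 7 h m)).symm

theorem tab_one : tab 7 (gN 7 1) = idL := by
  have h : ∀ m ∈ List.range (7 + 1), gN 7 1 m = id m := by
    intro m hm
    exact gN_one 7 (by have := List.mem_range.mp hm; omega)
  show List.map (gN 7 1) (List.range (7 + 1)) = idL
  rw [List.map_congr_left h, List.map_id, range8]; rfl

theorem enc_inj {x y : Option (ZMod 7)} (h : enc 7 x = enc 7 y) : x = y := by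
  rw [← dec_enc 7 x, ← dec_enc 7 y, h]

theorem tab_inj {g h : Equiv.Perm (Option (ZMod 7))} (hgh : tab 7 (gN 7 g) = tab 7 (gN 7 h)) :
    g = h := by
  refine Equiv.ext fun pt => ?_
  have h1 : look (tab 7 (gN 7 g)) (enc 7 pt) = look (tab 7 (gN 7 h)) (enc 7 pt) := by rw [hgh]
  rw [look_tab 7 _ (enc_le 7 pt), look_tab 7 _ (enc_le 7 pt)] at h1
  unfold gN at h1
  rw [dec_enc] at h1
  exact enc_inj h1

/-- Table of `Uperm`. -/
theorem tab_U : tab 7 (gN 7 (Uperm 7)) = [1, 2, 3, 4, 5, 6, 0, 7] := by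
  have h : gN 7 (Uperm 7) = UN 7 1 := by
    funext m
    have := gN_Upow 7 1 m
    rwa [Nat.cast_one] at this
  rw [h]; decide

theorem Uperm_inv : (Uperm 7)⁻¹ = Upow 7 ((6 : ℕ) : ZMod 7) := by
  rw [inv_eq_iff_mul_eq_one]
  show Upow 7 1 * Upow 7 ((6 : ℕ) : ZMod 7) = 1
  rw [← Upow_add]
  have : (1 : ZMod 7) + ((6 : ℕ) : ZMod 7) = 0 := by decide
  rw [this, Upow_zero]

theorem tab_Uinv : tab 7 (gN 7 (Uperm 7)⁻¹) = [6, 0, 1, 2, 3, 4, 5, 7] := by
  have h : gN 7 (Uperm 7)⁻¹ = UN 7 6 := by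
    funext m
    rw [Uperm_inv]
    exact gN_Upow 7 6 m
  rw [h]; decide

theorem Tperm_val (x y : ZMod 7) (hx : x ≠ 0) (h : y * x = -1) :
    Tperm 7 (-1) (some x) = some y := by
  rw [Tperm_some 7 _ hx]
  congr 1
  simp only [Units.val_neg, Units.val_one]
  rw [← h]
  field_simp

theorem gN_T (m y : ℕ) (hm7 : m < 7) (hy : y < 7) (hx : (m : ZMod 7) ≠ 0)
    (h : (y : ZMod 7) * (m : ZMod 7) = -1) : gN 7 (Tperm 7 (-1)) m = y := by
  unfold gN
  rw [dec_of_lt 7 hm7, Tperm_val _ _ hx h]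
  show ((y : ZMod 7)).val = y
  rw [ZMod.val_natCast, Nat.mod_eq_of_lt hy]

theorem tab_T : tab 7 (gN 7 (Tperm 7 (-1))) = [7, 6, 3, 2, 5, 4, 1, 0] := by
  show List.map (gN 7 (Tperm 7 (-1))) (List.range (7 + 1)) = _
  rw [range8]
  have h0 : gN 7 (Tperm 7 (-1)) 0 = 7 := by
    unfold gN
    rw [dec_of_lt 7 (by norm_num), Nat.cast_zero, Tperm_zero]; rfl
  have h7 : gN 7 (Tperm 7 (-1)) 7 = 0 := by
    unfold gN
    rw [dec_self, Tperm_none]; rfl
  have h1 := gN_T 1 6 (by norm_num) (by norm_num) (by decide) (by decide)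
  have h2 := gN_T 2 3 (by norm_num) (by norm_num) (by decide) (by decide)
  have h3 := gN_T 3 2 (by norm_num) (by norm_num) (by decide) (by decide)
  have h4 := gN_T 4 5 (by norm_num) (by norm_num) (by decide) (by decide)
  have h5 := gN_T 5 4 (by norm_num) (by norm_num) (by decide) (by decide)
  have h6 := gN_T 6 1 (by norm_num) (by norm_num) (by decide) (by decide)
  simp only [List.map, h0, h1, h2, h3, h4, h5, h6, h7]

theorem Tperm_inv (c : (ZMod 7)ˣ) : (Tperm 7 c)⁻¹ = Tperm 7 c := by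
  rw [inv_eq_iff_mul_eq_one]
  refine Equiv.ext fun o => ?_
  exact (Function.Involutive.toPerm_involutive _ o)

theorem tab_H (a : (ZMod 7)ˣ) (ha : a ^ 3 = 1) : tab 7 (gN 7 (Hperm 7 a)) ∈ gensL := by
  have h : gN 7 (Hperm 7 a) = HN 7 (a : ZMod 7).val := by
    funext m
    exact gN_Hperm 7 a _ (ZMod.natCast_zmod_val _) m
  rw [h]
  have h1 : (a : ZMod 7).val ^ 3 % 7 = 1 := by
    rw [natCast_pow_eq_one_iff, ZMod.natCast_zmod_val]
    have := congrArg Units.val ha
    simpa using this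
  have h2 : (a : ZMod 7).val < 7 := ZMod.val_lt _
  generalize (a : ZMod 7).val = v at h1 h2
  interval_cases v <;> first | (exfalso; revert h1; decide) | decide

theorem Hperm_inv (a : (ZMod 7)ˣ) : (Hperm 7 a)⁻¹ = Hperm 7 a⁻¹ := by
  rw [inv_eq_iff_mul_eq_one, ← Hperm_mul, mul_inv_cancel, Hperm_one]

theorem gen_table (x : Equiv.Perm (Option (ZMod 7)))
    (hx : x ∈ ({Uperm 7, Tperm 7 (-1)} ∪ {g | ∃ a : (ZMod 7)ˣ, a ^ 3 = 1 ∧ g = Hperm 7 a} :
      Set (Equiv.Perm (Option (ZMod 7))))) :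
    tab 7 (gN 7 x) ∈ gensL ∧ tab 7 (gN 7 x⁻¹) ∈ gensL := by
  rcases hx with hx | ⟨a, ha, rfl⟩
  · rcases hx with rfl | rfl
    · rw [tab_U, tab_Uinv]; decide
    · rw [Tperm_inv, tab_T]; decide
  · refine ⟨tab_H a ha, ?_⟩
    rw [Hperm_inv]
    exact tab_H a⁻¹ (by rw [inv_pow, ha, inv_one])

theorem table_mem (x : Equiv.Perm (Option (ZMod 7))) (hx : x ∈ L0 7 3) :
    tab 7 (gN 7 x) ∈ T168 := by
  unfold L0 at hx
  induction hx using Subgroup.closure_induction_left with
  | one => rw [tab_one]; exact idL_mem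
  | mul_left x hx y hy ih =>
    rw [tab_gN_mul]; exact gens_closed _ (gen_table x hx).1 _ ih
  | inv_mul_cancel x hx y hy ih =>
    rw [tab_gN_mul]; exact gens_closed _ (gen_table x hx).2 _ ih

/-- The table model of a simple group of order 168. -/
theorem model {G : Type*} [Group G] [Finite G] [IsSimpleGroup G] (h : Nat.card G = 168) :
    ∃ c : G → List ℕ, Function.Injective c ∧ (∀ g, c g ∈ T168) ∧ (∀ L ∈ T168, ∃ g, c g = L) ∧
      (∀ g h, c (g * h) = compL (c g) (c h)) ∧ c 1 = idL := by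
  classical
  obtain ⟨e⟩ := iso_L0 7 3 2 3 5 tests7 [1] (by norm_num) (by norm_num) chk7 num7 syl7
    (Or.inr ⟨rfl, by norm_num, by norm_num, by norm_num⟩) (G := G) (by rw [h])
  set c : G → List ℕ := fun g => tab 7 (gN 7 (e g : Equiv.Perm (Option (ZMod 7)))) with hc
  have hinj : Function.Injective c := by
    intro g g' hgg
    exact e.injective (Subtype.ext (tab_inj hgg))
  have hmem : ∀ g, c g ∈ T168 := fun g => table_mem _ (e g).2
  refine ⟨c, hinj, hmem, ?_, ?_, ?_⟩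
  · have := Fintype.ofFinite G
    have himg : (Finset.univ.image c) = T168.toFinset := by
      apply Finset.eq_of_subset_of_card_le
      · intro L hL
        obtain ⟨g, -, rfl⟩ := Finset.mem_image.mp hL
        exact List.mem_toFinset.mpr (hmem g)
      · rw [Finset.card_image_of_injective _ hinj, Finset.card_univ, ← Nat.card_eq_fintype_card,
          h, List.toFinset_card_of_nodup T168_nodup, T168_len]
    intro L hL
    have : L ∈ Finset.univ.image c := by rw [himg]; exact List.mem_toFinset.mpr hL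
    obtain ⟨g, -, hg⟩ := Finset.mem_image.mp this
    exact ⟨g, hg⟩
  · intro g g'
    show tab 7 (gN 7 ((e (g * g') : L0 7 3) : Equiv.Perm (Option (ZMod 7)))) = _
    rw [map_mul]
    exact tab_gN_mul _ _
  · show tab 7 (gN 7 ((e 1 : L0 7 3) : Equiv.Perm (Option (ZMod 7)))) = _
    rw [map_one]
    exact tab_one

end Cfsg.Agent.Helper29.Zas.M168
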