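import Mathlib
import Cfsg.Agent.Helper29.Zas.M168Model

set_option autoImplicit false

namespace Cfsg.Agent.Helper29.Zas.M168

open Cfsg.Agent.Helper29.Zas

/-- A table model of a group of order 168. -/
structure Model (G : Type*) [Group G] (c : G → List ℕ) : Prop where
  inj : Function.Injective c
  mem : ∀ g, c g ∈ T168
  surj : ∀ L ∈ T168, ∃ g, c g = L
  mul : ∀ g h, c (g * h) = compL (c g) (c h)
  one : c 1 = idL

theorem exists_model {G : Type*} [Group G] [Finite G] [IsSimpleGroup G] (h : Nat.card G = 168) :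
    ∃ c : G → List ℕ, Model G c := by
  obtain ⟨c, h1, h2, h3, h4, h5⟩ := model h
  exact ⟨c, ⟨h1, h2, h3, h4, h5⟩⟩

/-- The order of a table. -/
def ordL (A : List ℕ) : ℕ :=
  if powL A 1 == idL then 1 else if powL A 2 == idL then 2 else if powL A 3 == idL then 3
  else if powL A 4 == idL then 4 else if powL A 7 == idL then 7 else 0

def okOrd (A : List ℕ) : Bool :=
  (ordL A != 0) && (powL A (ordL A) == idL) &&
    (List.range (ordL A)).all (fun j => j == 0 || powL A j != idL)

set_option maxRecDepth 1000000 in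
theorem okOrd_all : ∀ L ∈ T168, okOrd L = true := by decide +kernel

set_option maxRecDepth 1000000 in
theorem ordL_vals : ∀ L ∈ T168,
    ordL L = 1 ∨ ordL L = 2 ∨ ordL L = 3 ∨ ordL L = 4 ∨ ordL L = 7 := by decide +kernel

namespace Model

variable {G : Type*} [Group G] {c : G → List ℕ} (hM : Model G c)
include hM

theorem pow (g : G) (k : ℕ) : c (g ^ k) = powL (c g) k := by
  induction k with
  | zero => rw [pow_zero, hM.one]; rfl
  | succ n ih => rw [pow_succ, hM.mul, ih]; rfl

theorem eq_one_iff (g : G) : c g = idL ↔ g = 1 := by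
  constructor
  · intro h; apply hM.inj; rw [h, hM.one]
  · rintro rfl; exact hM.one

theorem orderOf_eq (g : G) : orderOf g = ordL (c g) := by
  have h := okOrd_all (c g) (hM.mem g)
  unfold okOrd at h
  simp only [Bool.and_eq_true, bne_iff_ne, ne_eq, beq_iff_eq, List.all_eq_true, List.mem_range,
    Bool.or_eq_true] at h
  obtain ⟨⟨h0, h1⟩, h2⟩ := h
  rw [orderOf_eq_iff (Nat.pos_of_ne_zero h0)]
  refine ⟨(hM.eq_one_iff _).mp (by rw [hM.pow, h1]), ?_⟩
  intro m hm hm0 hgm
  rcases h2 m hm with h3 | h3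
  · omega
  · apply h3
    rw [← hM.pow, hgm, hM.one]

theorem isConj_of {s t : G} {X : List ℕ} (hX : X ∈ T168)
    (h : compL X (c s) = compL (c t) X) : IsConj s t := by
  obtain ⟨x, rfl⟩ := hM.surj X hX
  rw [← hM.mul, ← hM.mul] at h
  have h' := hM.inj h
  rw [isConj_iff]
  exact ⟨x, by rw [h']; group⟩

theorem of_isConj {s t : G} (h : IsConj s t) :
    ∃ X ∈ T168, compL X (c s) = compL (c t) X := by
  rw [isConj_iff] at h
  obtain ⟨x, hx⟩ := h
  refine ⟨c x, hM.mem x, ?_⟩
  rw [← hM.mul, ← hM.mul, ← hx]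
  congr 1; group

theorem card_subtype (P : G → Prop) (Q : List ℕ → Bool) (hPQ : ∀ g, P g ↔ Q (c g) = true) :
    Nat.card {g // P g} = (T168.filter Q).length := by
  classical
  have hmemf : ∀ g : {g // P g}, c g.1 ∈ T168.filter Q := fun g =>
    List.mem_filter.mpr ⟨hM.mem g.1, (hPQ g.1).mp g.2⟩
  have e : {g // P g} ≃ {L // L ∈ T168.filter Q} :=
    Equiv.ofBijective (fun g => ⟨c g.1, hmemf g⟩) ⟨by
      intro g g' h
      exact Subtype.ext (hM.inj (congrArg Subtype.val h)), by
      rintro ⟨L, hL⟩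
      obtain ⟨hL1, hL2⟩ := List.mem_filter.mp hL
      obtain ⟨g, rfl⟩ := hM.surj L hL1
      exact ⟨⟨g, (hPQ g).mpr hL2⟩, rfl⟩⟩
  rw [Nat.card_congr e]
  have h2 : Nat.card {L // L ∈ T168.filter Q} = (T168.filter Q).toFinset.card := by
    rw [← Fintype.card_coe (T168.filter Q).toFinset, ← Nat.card_eq_fintype_card]
    exact Nat.card_congr (Equiv.subtypeEquivRight (fun x => List.mem_toFinset.symm))
  rw [h2, List.toFinset_card_of_nodup (T168_nodup.filter _)]

/-- Conjugating the model. -/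
theorem conj (g : G) : Model G (fun h => c (g⁻¹ * h * g)) where
  inj := by
    intro a b h
    have := hM.inj h
    have h2 : a = g * (g⁻¹ * a * g) * g⁻¹ := by group
    rw [h2, this]; group
  mem := fun h => hM.mem _
  surj := by
    intro L hL
    obtain ⟨x, hx⟩ := hM.surj L hL
    refine ⟨g * x * g⁻¹, ?_⟩
    show c (g⁻¹ * (g * x * g⁻¹) * g) = L
    rw [← hx]; congr 1; group
  mul := by
    intro a b
    show c (g⁻¹ * (a * b) * g) = compL (c (g⁻¹ * a * g)) (c (g⁻¹ * b * g))
    rw [← hM.mul]; congr 1; group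
  one := by
    show c (g⁻¹ * 1 * g) = idL
    rw [← hM.one]; congr 1; group

/-- The subgroup given by a list of tables. -/
def sub (PL : List (List ℕ)) (hone : idL ∈ PL) (hmul : ∀ A ∈ PL, ∀ B ∈ PL, compL A B ∈ PL)
    (hinv : ∀ A ∈ PL, ∃ B ∈ PL, compL A B = idL) (hsub : ∀ A ∈ PL, A ∈ T168) : Subgroup G where
  carrier := {g | c g ∈ PL}
  mul_mem' := by
    intro a b ha hb
    show c (a * b) ∈ PL
    rw [hM.mul]; exact hmul _ ha _ hb
  one_mem' := by
    show c 1 ∈ PL
    rw [hM.one]; exact hone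
  inv_mem' := by
    intro a ha
    show c a⁻¹ ∈ PL
    obtain ⟨B, hB, hAB⟩ := hinv _ ha
    obtain ⟨b, rfl⟩ := hM.surj B (hsub B hB)
    rw [← hM.mul, hM.eq_one_iff] at hAB
    have : a⁻¹ = b := inv_eq_of_mul_eq_one_right hAB
    rw [this]; exact hB

end Model

theorem mem_normalizer_of_forall {G : Type*} [Group G] [Finite G] (H : Subgroup G) (g : G)
    (h : ∀ x ∈ H, g * x * g⁻¹ ∈ H) : g ∈ Subgroup.normalizer (H : Set G) := by
  rw [Subgroup.mem_normalizer_iff]
  intro x
  refine ⟨h x, fun hx => ?_⟩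
  have hinj : Function.Injective (fun y : H => (⟨g * y.1 * g⁻¹, h y.1 y.2⟩ : H)) := by
    intro a b hab
    have := congrArg Subtype.val hab
    simp only [mul_left_inj, mul_right_inj] at this
    exact Subtype.ext this
  obtain ⟨y, hy⟩ := (Finite.injective_iff_surjective.mp hinj) ⟨g * x * g⁻¹, hx⟩
  have := congrArg Subtype.val hy
  simp only [mul_left_inj, mul_right_inj] at this
  rw [← this]; exact y.2

end Cfsg.Agent.Helper29.Zas.M168
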