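import Mathlib
import Cfsg.Agent.Helper29.Zas.M168Api

set_option autoImplicit false

namespace Cfsg.Agent.Helper29.Zas.M168

/-- An involution. -/
def S2 : List ℕ := [7, 6, 3, 2, 5, 4, 1, 0]
/-- An element of order 3. -/
def R3 : List ℕ := [0, 2, 4, 6, 1, 3, 5, 7]
/-- An element of order 4. -/
def R4 : List ℕ := [6, 4, 3, 1, 2, 7, 5, 0]
/-- An element of order 7 and its inverse. -/
def X7 : List ℕ := [1, 2, 3, 4, 5, 6, 0, 7]
def X7' : List ℕ := [6, 0, 1, 2, 3, 4, 5, 7]

theorem S2_mem : S2 ∈ T168 := by decide +kernel
theorem R3_mem : R3 ∈ T168 := by decide +kernel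
theorem R4_mem : R4 ∈ T168 := by decide +kernel
theorem X7_mem : X7 ∈ T168 := by decide +kernel
theorem X7'_mem : X7' ∈ T168 := by decide +kernel

set_option maxRecDepth 1000000 in
theorem card2 : (T168.filter (fun L => ordL L == 2)).length = 21 := by decide +kernel
set_option maxRecDepth 1000000 in
theorem card3 : (T168.filter (fun L => ordL L == 3)).length = 56 := by decide +kernel
set_option maxRecDepth 1000000 in
theorem card4 : (T168.filter (fun L => ordL L == 4)).length = 42 := by decide +kernel
set_option maxRecDepth 1000000 in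
theorem card7 : (T168.filter (fun L => ordL L == 7)).length = 48 := by decide +kernel

set_option maxRecDepth 1000000 in
theorem conj2 : ∀ L ∈ T168, ordL L = 2 → ∃ X ∈ T168, compL X L = compL S2 X := by
  decide +kernel
set_option maxRecDepth 1000000 in
theorem conj3 : ∀ L ∈ T168, ordL L = 3 → ∃ X ∈ T168, compL X L = compL R3 X := by
  decide +kernel
set_option maxRecDepth 1000000 in
theorem conj4 : ∀ L ∈ T168, ordL L = 4 → ∃ X ∈ T168, compL X L = compL R4 X := by
  decide +kernel

/-- Conjugate to `X7`? -/
def f7 (L : List ℕ) : Bool := T168.any (fun X => compL X L == compL X7 X)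

set_option maxRecDepth 1000000 in
theorem class7a : (T168.filter (fun L => ordL L == 7 && f7 L)).length = 24 := by decide +kernel
set_option maxRecDepth 1000000 in
theorem class7b : (T168.filter (fun L => ordL L == 7 && !f7 L)).length = 24 := by decide +kernel
set_option maxRecDepth 1000000 in
theorem class7c : ∀ L ∈ T168, ordL L = 7 → f7 L = false →
    ∃ X ∈ T168, compL X L = compL X7' X := by decide +kernel
set_option maxRecDepth 1000000 in
theorem class7e : ∀ L ∈ T168, ordL L = 7 → ∀ X ∈ T168, compL X L ≠ compL (powL L 6) X := by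
  decide +kernel

end Cfsg.Agent.Helper29.Zas.M168
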