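import Mathlib
import Cfsg.Agent.Helper29.Zas.M168Facts

set_option autoImplicit false

namespace Cfsg.Agent.Helper29.Zas.M168

open Cfsg.Agent.Helper29.Zas

/-- A Sylow 2-subgroup (dihedral of order 8). -/
def T0L : List (List ℕ) :=
  [[0, 1, 2, 3, 4, 5, 6, 7], [6, 4, 3, 1, 2, 7, 5, 0], [5, 2, 1, 4, 3, 0, 7, 6],
   [7, 3, 4, 2, 1, 6, 0, 5], [3, 7, 6, 0, 5, 4, 2, 1], [2, 5, 0, 7, 6, 1, 4, 3],
   [4, 6, 7, 5, 0, 3, 1, 2], [1, 0, 5, 6, 7, 2, 3, 4]]

/-- A Sylow 3-subgroup. -/
def P3L : List (List ℕ) :=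
  [[0, 1, 2, 3, 4, 5, 6, 7], [0, 2, 4, 6, 1, 3, 5, 7], [0, 4, 1, 5, 2, 6, 3, 7]]

/-- The normaliser test. -/
def QN (PL : List (List ℕ)) (X : List ℕ) : Bool :=
  PL.all (fun A => PL.any (fun B => compL X A == compL B X))

theorem T0_one : idL ∈ T0L := by decide +kernel
theorem T0_mul : ∀ A ∈ T0L, ∀ B ∈ T0L, compL A B ∈ T0L := by decide +kernel
theorem T0_inv : ∀ A ∈ T0L, ∃ B ∈ T0L, compL A B = idL := by decide +kernel
theorem T0_sub : ∀ A ∈ T0L, A ∈ T168 := by decide +kernel
set_option maxRecDepth 1000000 in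
theorem T0_card : (T168.filter (fun L => decide (L ∈ T0L))).length = 2 ^ 3 := by decide +kernel
set_option maxRecDepth 1000000 in
theorem T0_norm : (T168.filter (QN T0L)).length = 8 := by decide +kernel
set_option maxRecDepth 1000000 in
theorem T0_norm' : ∀ X ∈ T168, QN T0L X = true → X ∈ T0L := by decide +kernel

theorem P3_one : idL ∈ P3L := by decide +kernel
theorem P3_mul : ∀ A ∈ P3L, ∀ B ∈ P3L, compL A B ∈ P3L := by decide +kernel
theorem P3_inv : ∀ A ∈ P3L, ∃ B ∈ P3L, compL A B = idL := by decide +kernel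
theorem P3_sub : ∀ A ∈ P3L, A ∈ T168 := by decide +kernel
set_option maxRecDepth 1000000 in
theorem P3_card : (T168.filter (fun L => decide (L ∈ P3L))).length = 3 ^ 1 := by decide +kernel
set_option maxRecDepth 1000000 in
theorem P3_norm : (T168.filter (QN P3L)).length = 6 := by decide +kernel

theorem fact168_2 : (168 : ℕ).factorization 2 = 3 := by
  have h : (168 : ℕ) = 2 ^ 3 * 21 := by norm_num
  rw [h, Nat.factorization_mul (by norm_num) (by norm_num),
    Nat.Prime.factorization_pow Nat.prime_two]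
  simp [Nat.factorization_eq_zero_of_not_dvd (show ¬ 2 ∣ 21 by norm_num)]

theorem fact168_3 : (168 : ℕ).factorization 3 = 1 := by
  have h : (168 : ℕ) = 3 ^ 1 * 56 := by norm_num
  rw [h, Nat.factorization_mul (by norm_num) (by norm_num),
    Nat.Prime.factorization_pow Nat.prime_three]
  simp [Nat.factorization_eq_zero_of_not_dvd (show ¬ 3 ∣ 56 by norm_num)]

namespace Model

variable {G : Type*} [Group G] {c : G → List ℕ} (hM : Model G c)
include hM

theorem card_sub (PL : List (List ℕ)) (hone : idL ∈ PL)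
    (hmul : ∀ A ∈ PL, ∀ B ∈ PL, compL A B ∈ PL)
    (hinv : ∀ A ∈ PL, ∃ B ∈ PL, compL A B = idL) (hsub : ∀ A ∈ PL, A ∈ T168) :
    Nat.card (hM.sub PL hone hmul hinv hsub) = (T168.filter (fun L => decide (L ∈ PL))).length :=
  hM.card_subtype (fun g => g ∈ hM.sub PL hone hmul hinv hsub) (fun L => decide (L ∈ PL))
    (fun g => by simp [Model.sub])

theorem mem_normalizer_iff [Finite G] (H : Subgroup G) (PL : List (List ℕ))
    (hsub : ∀ A ∈ PL, A ∈ T168) (hH : ∀ g, g ∈ H ↔ c g ∈ PL) (g : G) :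
    g ∈ Subgroup.normalizer (H : Set G) ↔ QN PL (c g) = true := by
  unfold QN
  rw [List.all_eq_true]
  constructor
  · intro hg A hA
    rw [List.any_eq_true]
    obtain ⟨x, rfl⟩ := hM.surj A (hsub A hA)
    have hx : x ∈ H := (hH x).mpr hA
    have hk : g * x * g⁻¹ ∈ H := (Subgroup.mem_normalizer_iff.mp hg x).mp hx
    refine ⟨c (g * x * g⁻¹), (hH _).mp hk, ?_⟩
    rw [beq_iff_eq, ← hM.mul, ← hM.mul]
    congr 1; group
  · intro hall
    apply mem_normalizer_of_forall
    intro x hx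
    have := hall (c x) ((hH x).mp hx)
    rw [List.any_eq_true] at this
    obtain ⟨B, hB, hBe⟩ := this
    obtain ⟨k, rfl⟩ := hM.surj B (hsub B hB)
    rw [beq_iff_eq, ← hM.mul, ← hM.mul] at hBe
    have h1 := hM.inj hBe
    rw [h1]
    have : k * g * g⁻¹ = k := by group
    rw [this]; exact (hH k).mpr hB

theorem card_normalizer [Finite G] (H : Subgroup G) (PL : List (List ℕ))
    (hsub : ∀ A ∈ PL, A ∈ T168) (hH : ∀ g, g ∈ H ↔ c g ∈ PL) :
    Nat.card (Subgroup.normalizer (H : Set G)) = (T168.filter (QN PL)).length :=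
  hM.card_subtype (fun g => g ∈ Subgroup.normalizer (H : Set G)) (QN PL)
    (fun g => hM.mem_normalizer_iff H PL hsub hH g)

theorem sylow_count [Finite G] (hG : Nat.card G = 168) (p k m n : ℕ) [Fact p.Prime]
    (hk : (168 : ℕ).factorization p = k) (PL : List (List ℕ)) (hone : idL ∈ PL)
    (hmul : ∀ A ∈ PL, ∀ B ∈ PL, compL A B ∈ PL)
    (hinv : ∀ A ∈ PL, ∃ B ∈ PL, compL A B = idL) (hsub : ∀ A ∈ PL, A ∈ T168)
    (hcard : (T168.filter (fun L => decide (L ∈ PL))).length = p ^ k)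
    (hN : (T168.filter (QN PL)).length = m) (hmn : m * n = 168) (hm : 0 < m) :
    Nat.card (Sylow p G) = n := by
  set H := hM.sub PL hone hmul hinv hsub with hH
  have hHcard : Nat.card H = p ^ (Nat.card G).factorization p := by
    rw [hG, hk, ← hcard]; exact hM.card_sub PL hone hmul hinv hsub
  set P : Sylow p G := Sylow.ofCard H hHcard with hP
  have h1 : Nat.card (Sylow p G) = (Subgroup.normalizer ((P : Subgroup G) : Set G)).index :=
    Sylow.card_eq_index_normalizer P
  have h2 := Subgroup.card_mul_index (Subgroup.normalizer ((P : Subgroup G) : Set G))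
  have h3 : Nat.card (Subgroup.normalizer ((P : Subgroup G) : Set G)) = m := by
    rw [← hN]
    exact hM.card_normalizer (P : Subgroup G) PL hsub (fun g => Iff.rfl)
  rw [h3, hG, ← hmn] at h2
  rw [h1]
  exact Nat.eq_of_mul_eq_mul_left hm h2

/-- Every Sylow 2-subgroup is `T0L` in a suitable model. -/
theorem exists_model_sylow2 [Finite G] (hG : Nat.card G = 168) (T : Sylow 2 G) :
    ∃ c' : G → List ℕ, Model G c' ∧ ∀ h, h ∈ T ↔ c' h ∈ T0L := by
  set H := hM.sub T0L T0_one T0_mul T0_inv T0_sub with hH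
  have hHcard : Nat.card H = 2 ^ (Nat.card G).factorization 2 := by
    rw [hG, fact168_2, ← T0_card]; exact hM.card_sub T0L T0_one T0_mul T0_inv T0_sub
  set P : Sylow 2 G := Sylow.ofCard H hHcard with hP
  obtain ⟨g, hg⟩ := MulAction.exists_smul_eq G P T
  refine ⟨fun h => c (g⁻¹ * h * g), hM.conj g, ?_⟩
  intro h
  rw [← hg]
  show h ∈ ((g • P : Sylow 2 G) : Subgroup G) ↔ _
  rw [Sylow.smul_def, Sylow.pointwise_smul_def, Subgroup.mem_pointwise_smul_iff_inv_smul_mem,
    MulAut.smul_def, MulAut.conj_inv_apply]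
  exact Iff.rfl

end Model

end Cfsg.Agent.Helper29.Zas.M168
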