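import Mathlib
import Cfsg.Agent.Helper29.Zas.M168Syl

set_option autoImplicit false

namespace Cfsg.Agent.Helper29.Zas.M168

open Cfsg.Agent.Helper29.Zas

def Rho : List ℕ := [6, 4, 3, 1, 2, 7, 5, 0]
def Sig : List ℕ := [3, 7, 6, 0, 5, 4, 2, 1]
/-- The central involution of `T0L`. -/
def Z0 : List ℕ := [5, 2, 1, 4, 3, 0, 7, 6]

/-- The dihedral parametrisation of `T0L`. -/
def fD : DihedralGroup 4 → List ℕ
  | .r i => powL Rho i.val
  | .sr i => compL Sig (powL Rho i.val)

set_option maxRecDepth 1000000 in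
theorem fD_mul : ∀ a b : DihedralGroup 4, fD (a * b) = compL (fD a) (fD b) := by decide +kernel
set_option maxRecDepth 1000000 in
theorem fD_mem : ∀ a : DihedralGroup 4, fD a ∈ T0L := by decide +kernel
set_option maxRecDepth 1000000 in
theorem fD_inj : ∀ a b : DihedralGroup 4, fD a = fD b → a = b := by decide +kernel

set_option maxRecDepth 1000000 in
theorem Z0_unique : ∀ Z ∈ T0L, Z ≠ idL → (∀ A ∈ T0L, compL A Z = compL Z A) → Z = Z0 := by
  decide +kernel
set_option maxRecDepth 1000000 in
theorem Z0_cent : ∀ X ∈ T168, compL Z0 X = compL X Z0 → X ∈ T0L := by decide +kernel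

namespace Model

variable {G : Type*} [Group G] {c : G → List ℕ} (hM : Model G c)
include hM

theorem card_T0 (T : Subgroup G) (hT : ∀ h, h ∈ T ↔ c h ∈ T0L) : Nat.card T = 8 := by
  have := hM.card_subtype (fun g => g ∈ T) (fun L => decide (L ∈ T0L))
    (fun g => by simp [hT])
  rw [T0_card] at this
  exact this

theorem dihedral_equiv [Finite G] (T : Subgroup G) (hT : ∀ h, h ∈ T ↔ c h ∈ T0L) :
    Nonempty (T ≃* DihedralGroup 4) := by
  classical
  have hex : ∀ d : DihedralGroup 4, ∃ g : G, c g = fD d :=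
    fun d => hM.surj _ (T0_sub _ (fD_mem d))
  choose f hf using hex
  have hfT : ∀ d, f d ∈ T := fun d => (hT _).mpr (by rw [hf]; exact fD_mem d)
  let F : DihedralGroup 4 →* T := MonoidHom.mk' (fun d => ⟨f d, hfT d⟩) (by
    intro a b
    apply Subtype.ext
    apply hM.inj
    show c (f (a * b)) = c (f a * f b)
    rw [hM.mul, hf, hf, hf, fD_mul])
  have hinj : Function.Injective F := by
    intro a b h
    apply fD_inj
    rw [← hf a, ← hf b]
    exact congrArg c (congrArg Subtype.val h)
  have hbij : Function.Bijective F := by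
    apply hinj.bijective_of_nat_card_le
    rw [DihedralGroup.nat_card, hM.card_T0 T hT]
  exact ⟨(MulEquiv.ofBijective F hbij).symm⟩

theorem normalizer_T0 [Finite G] (T : Subgroup G) (hT : ∀ h, h ∈ T ↔ c h ∈ T0L) :
    Subgroup.normalizer (T : Set G) = T := by
  apply le_antisymm
  · intro x hx
    rw [hM.mem_normalizer_iff T T0L T0_sub hT] at hx
    exact (hT x).mpr (T0_norm' _ (hM.mem x) hx)
  · exact Subgroup.le_normalizer

theorem centralizer_T0 [Finite G] (T : Subgroup G) (hT : ∀ h, h ∈ T ↔ c h ∈ T0L) (z : G)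
    (hz : z ∈ T) (hz1 : z ≠ 1) (hcomm : ∀ t ∈ T, t * z = z * t) :
    Subgroup.centralizer ({z} : Set G) = T := by
  have hZ : c z = Z0 := by
    apply Z0_unique _ ((hT z).mp hz)
    · intro h; exact hz1 ((hM.eq_one_iff z).mp h)
    · intro A hA
      obtain ⟨t, rfl⟩ := hM.surj A (T0_sub A hA)
      rw [← hM.mul, ← hM.mul, hcomm t ((hT t).mpr hA)]
  ext x
  rw [Subgroup.mem_centralizer_iff]
  constructor
  · intro hx
    have h1 : z * x = x * z := hx z (Set.mem_singleton z)
    apply (hT x).mpr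
    apply Z0_cent _ (hM.mem x)
    rw [← hZ, ← hM.mul, ← hM.mul, h1]
  · intro hx y hy
    rw [Set.mem_singleton_iff] at hy
    subst hy
    exact (hcomm x hx).symm

end Model

end Cfsg.Agent.Helper29.Zas.M168
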