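import Mathlib
import Cfsg.Agent.Helper29.Zas.M168Dih

set_option autoImplicit false

namespace Cfsg.Agent.Helper29.Zas.M168

open Cfsg.Agent.Helper29.Zas

def V1L : List (List ℕ) :=
  [[0, 1, 2, 3, 4, 5, 6, 7], [5, 2, 1, 4, 3, 0, 7, 6], [3, 7, 6, 0, 5, 4, 2, 1],
   [4, 6, 7, 5, 0, 3, 1, 2]]
def V2L : List (List ℕ) :=
  [[0, 1, 2, 3, 4, 5, 6, 7], [5, 2, 1, 4, 3, 0, 7, 6], [2, 5, 0, 7, 6, 1, 4, 3],
   [1, 0, 5, 6, 7, 2, 3, 4]]
def K1L : List (List ℕ) :=
  [[0, 1, 2, 3, 4, 5, 6, 7], [4, 6, 1, 3, 5, 0, 2, 7], [5, 2, 6, 3, 0, 4, 1, 7],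
   [2, 5, 0, 7, 6, 1, 4, 3], [6, 4, 5, 7, 1, 2, 0, 3], [1, 0, 4, 7, 2, 6, 5, 3]]
def K2L : List (List ℕ) :=
  [[0, 1, 2, 3, 4, 5, 6, 7], [1, 5, 2, 6, 3, 0, 4, 7], [5, 0, 2, 4, 6, 1, 3, 7],
   [4, 6, 7, 5, 0, 3, 1, 2], [6, 3, 7, 1, 5, 4, 0, 2], [3, 4, 7, 0, 1, 6, 5, 2]]

/-- The list-level facts about a Klein four-group `VL` with a core-free subgroup `KL` of order 6
of its normaliser. -/
structure KData (VL KL : List (List ℕ)) : Prop where
  one : idL ∈ VL
  mul : ∀ A ∈ VL, ∀ B ∈ VL, compL A B ∈ VL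
  inv : ∀ A ∈ VL, ∃ B ∈ VL, compL A B = idL
  sub : ∀ A ∈ VL, A ∈ T168
  subT : ∀ A ∈ VL, A ∈ T0L
  card : (T168.filter (fun L => decide (L ∈ VL))).length = 4
  sq : ∀ A ∈ VL, compL A A = idL
  ncard : (T168.filter (QN VL)).length = 24
  kone : idL ∈ KL
  kmul : ∀ A ∈ KL, ∀ B ∈ KL, compL A B ∈ KL
  kinv : ∀ A ∈ KL, ∃ B ∈ KL, compL A B = idL
  ksub : ∀ A ∈ KL, A ∈ T168
  kN : ∀ A ∈ KL, QN VL A = true
  kcard : (T168.filter (fun L => decide (L ∈ KL))).length = 6
  core : ∀ A ∈ KL, A ≠ idL → ∃ X ∈ T168, QN VL X = true ∧ ∀ B ∈ KL, compL X A ≠ compL B X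

set_option maxRecDepth 1000000 in
theorem kdata1 : KData V1L K1L := by
  refine ⟨?_, ?_, ?_, ?_, ?_, ?_, ?_, ?_, ?_, ?_, ?_, ?_, ?_, ?_, ?_⟩ <;> decide +kernel

set_option maxRecDepth 1000000 in
theorem kdata2 : KData V2L K2L := by
  refine ⟨?_, ?_, ?_, ?_, ?_, ?_, ?_, ?_, ?_, ?_, ?_, ?_, ?_, ?_, ?_⟩ <;> decide +kernel

set_option maxRecDepth 1000000 in
theorem klein_key : ∀ A ∈ T0L, ∀ B ∈ T0L, A ≠ idL → B ≠ idL → A ≠ B → compL A A = idL →
    compL B B = idL → compL A B = compL B A →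
    (A ∈ V1L ∧ B ∈ V1L) ∨ (A ∈ V2L ∧ B ∈ V2L) := by decide +kernel

set_option maxRecDepth 1000000 in
theorem nonconj12 : ∀ X ∈ T168, ∃ A ∈ V1L, ∀ B ∈ V2L, compL X A ≠ compL B X := by
  decide +kernel
set_option maxRecDepth 1000000 in
theorem nonconj21 : ∀ X ∈ T168, ∃ A ∈ V2L, ∀ B ∈ V1L, compL X A ≠ compL B X := by
  decide +kernel

theorem V12_ne : ∃ A ∈ V1L, A ∉ V2L := by decide +kernel

/-- Recognition of `S₄`: order 24 with a core-free subgroup of order 6. -/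
theorem equiv_perm_four {N : Type*} [Group N] [Finite N] (K : Subgroup N)
    (hN : Nat.card N = 24) (hK : Nat.card K = 6)
    (hcore : ∀ k ∈ K, k ≠ 1 → ∃ n : N, n * k * n⁻¹ ∉ K) :
    Nonempty (N ≃* Equiv.Perm (Fin 4)) := by
  classical
  set φ := MulAction.toPermHom N (N ⧸ K) with hφ
  have hker : φ.ker = ⊥ := by
    rw [← Subgroup.normalCore_eq_ker, eq_bot_iff]
    intro k hk
    rw [Subgroup.mem_bot]
    by_contra hk1
    obtain ⟨n, hn⟩ := hcore k (K.normalCore_le hk) hk1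
    exact hn (K.normalCore_le ((inferInstance : K.normalCore.Normal).conj_mem k hk n))
  have hinj : Function.Injective φ := (MonoidHom.ker_eq_bot_iff φ).mp hker
  have hidx : Nat.card (N ⧸ K) = 4 := by
    have h1 := Subgroup.card_mul_index K
    rw [hN, hK, Subgroup.index_eq_card] at h1
    omega
  have hbij : Function.Bijective φ := by
    apply hinj.bijective_of_nat_card_le
    rw [Nat.card_perm, hidx, hN]; decide
  have e2 : (N ⧸ K) ≃ Fin 4 := Finite.equivFinOfCardEq hidx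
  exact ⟨(MulEquiv.ofBijective φ hbij).trans e2.permCongrHom⟩

namespace Model

variable {G : Type*} [Group G] {c : G → List ℕ} (hM : Model G c)
include hM

/-- The subgroup with tables `VL`. -/
theorem sub_klein {VL KL : List (List ℕ)} (hD : KData VL KL) (U : Subgroup G)
    (hU : ∀ u, u ∈ U ↔ c u ∈ VL) : IsKleinFour U := by
  have hcard : Nat.card U = 4 := by
    have := hM.card_subtype (fun g => g ∈ U) (fun L => decide (L ∈ VL)) (fun g => by simp [hU])
    rw [hD.card] at this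
    exact this
  refine ⟨hcard, ?_⟩
  have hdvd : Monoid.exponent U ∣ 2 := by
    apply Monoid.exponent_dvd_of_forall_pow_eq_one
    intro u
    apply Subtype.ext
    show (u : G) ^ 2 = 1
    rw [← hM.eq_one_iff, pow_two, hM.mul]
    exact hD.sq _ ((hU u).mp u.2)
  rcases (Nat.dvd_prime Nat.prime_two).mp hdvd with h1 | h2
  · exfalso
    rw [Monoid.exp_eq_one_iff] at h1
    have := Nat.card_eq_one_iff_unique.mpr ⟨h1, ⟨1⟩⟩
    omega
  · exact h2

theorem klein_in_T0 [Finite G] (T : Subgroup G) (hT : ∀ h, h ∈ T ↔ c h ∈ T0L)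
    (U : Subgroup G) (hUT : U ≤ T) (hU : IsKleinFour U) :
    (∀ u, u ∈ U ↔ c u ∈ V1L) ∨ (∀ u, u ∈ U ↔ c u ∈ V2L) := by
  classical
  have hUcard : Nat.card U = 4 := hU.card_four
  have hsq : ∀ u ∈ U, u * u = 1 := by
    intro u hu
    have := Monoid.pow_exponent_eq_one (⟨u, hu⟩ : U)
    rw [hU.exponent_two] at this
    have h2 := congrArg Subtype.val this
    simpa [pow_two] using h2
  -- a nontrivial element
  obtain ⟨a, haU, ha1⟩ : ∃ a ∈ U, a ≠ 1 := by
    by_contra hcon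
    push Not at hcon
    have : U = ⊥ := (Subgroup.eq_bot_iff_forall _).mpr hcon
    rw [this, Subgroup.card_bot] at hUcard
    omega
  obtain ⟨b, hbU, hb1, hba⟩ : ∃ b ∈ U, b ≠ 1 ∧ b ≠ a := by
    by_contra hcon
    push Not at hcon
    have hsub : (U : Set G) ⊆ {1, a} := by
      intro x hx
      by_cases hx1 : x = 1
      · left; exact hx1
      · right; exact hcon x hx hx1
    have h1 := Set.ncard_le_ncard hsub (Set.toFinite _)
    have h2 : ({1, a} : Set G).ncard ≤ 2 := by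
      have := Set.ncard_insert_le (1 : G) ({a} : Set G)
      rw [Set.ncard_singleton] at this
      exact this
    have h3 : (U : Set G).ncard = 4 := by rw [← hUcard]; exact (Nat.card_coe_set_eq _).symm
    omega
  have hab : a * b = b * a := by
    have h1 := hsq (a * b) (U.mul_mem haU hbU)
    have h2 := hsq a haU
    have h3 := hsq b hbU
    have e1 : a⁻¹ = a := inv_eq_of_mul_eq_one_right h2
    have e2 : b⁻¹ = b := inv_eq_of_mul_eq_one_right h3
    have e3 : (a * b)⁻¹ = a * b := inv_eq_of_mul_eq_one_right h1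
    rw [mul_inv_rev, e1, e2] at e3
    exact e3.symm
  have hkey := klein_key (c a) ((hT a).mp (hUT haU)) (c b) ((hT b).mp (hUT hbU))
    (fun h => ha1 ((hM.eq_one_iff a).mp h)) (fun h => hb1 ((hM.eq_one_iff b).mp h))
    (fun h => hba (hM.inj h).symm)
    (by rw [← hM.mul, hsq a haU, hM.one]) (by rw [← hM.mul, hsq b hbU, hM.one])
    (by rw [← hM.mul, ← hM.mul, hab])
  have hmain : ∀ (VL KL : List (List ℕ)) (hD : KData VL KL), c a ∈ VL → c b ∈ VL →
      ∀ u, u ∈ U ↔ c u ∈ VL := by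
    intro VL KL hD haV hbV
    set V := hM.sub VL hD.one hD.mul hD.inv hD.sub with hV
    have hVcard : Nat.card V = 4 := by
      rw [hM.card_sub VL hD.one hD.mul hD.inv hD.sub, hD.card]
    have hK3 : 3 ≤ Nat.card (U ⊓ V : Subgroup G) := by
      have hsub : ({1, a, b} : Set G) ⊆ ((U ⊓ V : Subgroup G) : Set G) := by
        intro x hx
        rcases hx with rfl | rfl | rfl
        · exact (U ⊓ V).one_mem
        · exact ⟨haU, haV⟩
        · exact ⟨hbU, hbV⟩
      have h3 : ({1, a, b} : Set G).ncard = 3 := by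
        rw [Set.ncard_eq_three]
        exact ⟨1, a, b, ha1.symm, hb1.symm, hba.symm, rfl⟩
      have h1 := Set.ncard_le_ncard hsub (Set.toFinite _)
      rw [h3] at h1
      have h2 : ((U ⊓ V : Subgroup G) : Set G).ncard = Nat.card (U ⊓ V : Subgroup G) :=
        (Nat.card_coe_set_eq _).symm
      omega
    have hKdvd : Nat.card (U ⊓ V : Subgroup G) ∣ 4 := by
      rw [← hUcard]; exact Subgroup.card_dvd_of_le inf_le_left
    have hK4 : Nat.card (U ⊓ V : Subgroup G) = 4 := by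
      have hle := Nat.le_of_dvd (by norm_num) hKdvd
      interval_cases h : Nat.card (U ⊓ V : Subgroup G)
      · exact absurd hKdvd (by decide)
      · rfl
    have hUV : U ⊓ V = U := Subgroup.eq_of_le_of_card_ge inf_le_left (by rw [hK4, hUcard])
    have hUleV : U ≤ V := by rw [← hUV]; exact inf_le_right
    have hUeqV : U = V := Subgroup.eq_of_le_of_card_ge hUleV (by rw [hVcard, hUcard])
    intro u
    rw [hUeqV]
    exact Iff.rfl
  rcases hkey with ⟨h1, h2⟩ | ⟨h1, h2⟩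
  · exact Or.inl (hmain V1L K1L kdata1 h1 h2)
  · exact Or.inr (hmain V2L K2L kdata2 h1 h2)

theorem normalizer_equiv [Finite G] {VL KL : List (List ℕ)} (hD : KData VL KL) (U : Subgroup G)
    (hU : ∀ u, u ∈ U ↔ c u ∈ VL) :
    Nonempty (↥(Subgroup.normalizer (U : Set G)) ≃* Equiv.Perm (Fin 4)) := by
  set N := Subgroup.normalizer (U : Set G) with hN
  have hNmem : ∀ g, g ∈ N ↔ QN VL (c g) = true := hM.mem_normalizer_iff U VL hD.sub hU
  have hNcard : Nat.card N = 24 := by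
    rw [hM.card_normalizer U VL hD.sub hU, hD.ncard]
  set K := hM.sub KL hD.kone hD.kmul hD.kinv hD.ksub with hK
  have hKN : K ≤ N := fun k hk => (hNmem k).mpr (hD.kN _ hk)
  have hKcard : Nat.card (K.subgroupOf N) = 6 := by
    rw [Nat.card_congr (Subgroup.subgroupOfEquivOfLe hKN).toEquiv,
      hM.card_sub KL hD.kone hD.kmul hD.kinv hD.ksub, hD.kcard]
  apply equiv_perm_four (K.subgroupOf N) hNcard hKcard
  intro k hk hk1
  have hkK : (k : G) ∈ K := hk
  have hk1' : c (k : G) ≠ idL := by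
    intro h
    apply hk1
    exact Subtype.ext ((hM.eq_one_iff _).mp h)
  obtain ⟨X, hX, hXN, hXB⟩ := hD.core _ hkK hk1'
  obtain ⟨x, rfl⟩ := hM.surj X hX
  refine ⟨⟨x, (hNmem x).mpr hXN⟩, ?_⟩
  intro hcon
  have hcon' : x * (k : G) * x⁻¹ ∈ K := hcon
  apply hXB _ hcon'
  rw [← hM.mul, ← hM.mul]
  congr 1; group

end Model

end Cfsg.Agent.Helper29.Zas.M168
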