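import Mathlib
import Cfsg.Agent.Helper29.Zas.M168Max

set_option autoImplicit false

namespace Cfsg.Agent.Helper29.Zas.M168

open Cfsg.Agent.Helper29.Zas

theorem max_mem_map_conj {G : Type*} [Group G] (M : Subgroup G) (g y : G) :
    y ∈ M.map (MulAut.conj g).toMonoidHom ↔ g⁻¹ * y * g ∈ M := by
  rw [Subgroup.mem_map_equiv, MulAut.conj_symm_apply]

theorem max_union {G : Type*} [Group G] (M A B : Subgroup G) (h : ∀ y ∈ M, y ∈ A ∨ y ∈ B) :
    M ≤ A ∨ M ≤ B := by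
  by_contra hcon
  push Not at hcon
  obtain ⟨hA, hB⟩ := hcon
  obtain ⟨a, haM, haA⟩ := SetLike.not_le_iff_exists.mp hA
  obtain ⟨b, hbM, hbB⟩ := SetLike.not_le_iff_exists.mp hB
  have haB : a ∈ B := (h a haM).resolve_left haA
  have hbA : b ∈ A := (h b hbM).resolve_right hbB
  rcases h (a * b) (M.mul_mem haM hbM) with h1 | h1
  · exact haA ((Subgroup.mul_mem_cancel_right A hbA).mp h1)
  · exact hbB ((Subgroup.mul_mem_cancel_left B haB).mp h1)

theorem max_no347 {G : Type*} [Group G] [Finite G] [IsSimpleGroup G] (h : Nat.card G = 168)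
    (M : Subgroup G) (hMc : IsCoatom M) (x a b : G) (hx : x ∈ M) (ha : a ∈ M) (hb : b ∈ M)
    (hx7 : orderOf x = 7) (ha3 : orderOf a = 3) (hb4 : orderOf b = 4) : False := by
  have h7 : 7 ∣ Nat.card M := hx7 ▸ Subgroup.orderOf_dvd_natCard M hx
  have h3 : 3 ∣ Nat.card M := ha3 ▸ Subgroup.orderOf_dvd_natCard M ha
  have h4 : 4 ∣ Nat.card M := hb4 ▸ Subgroup.orderOf_dvd_natCard M hb
  have h84 : 84 ∣ Nat.card M := by
    have h21 : 21 ∣ Nat.card M := Nat.Coprime.mul_dvd_of_dvd_of_dvd (by norm_num) h7 h3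
    exact Nat.Coprime.mul_dvd_of_dvd_of_dvd (by norm_num) h21 h4
  have hidx := Subgroup.card_mul_index M
  rw [h] at hidx
  obtain ⟨k, hk⟩ := h84
  have hcases : Nat.card M = 84 ∨ Nat.card M = 168 := by
    have hk2 : k * M.index = 2 := by
      rw [hk] at hidx
      nlinarith
    have hk3 : k ∣ 2 := Dvd.intro _ hk2
    have := Nat.le_of_dvd (by norm_num) hk3
    interval_cases k <;> omega
  rcases hcases with h1 | h1
  · have hi2 : M.index = 2 := by rw [h1] at hidx; omega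
    have hn : M.Normal := Subgroup.normal_of_index_eq_two hi2
    rcases hn.eq_bot_or_eq_top with h2 | h2
    · rw [h2] at h1; simp at h1
    · exact hMc.1 h2
  · exact hMc.1 ((Subgroup.card_eq_iff_eq_top M).mp (by rw [h1, h]))

namespace Model

variable {G : Type*} [Group G] {c : G → List ℕ} (hM : Model G c)
include hM

/-- The standard subgroup of order `21`. -/
def Bs : Subgroup G := hM.sub N7L N7_one N7_mul N7_inv N7_sub

theorem mem_Bs (g : G) : g ∈ hM.Bs ↔ c g ∈ N7L := Iff.rfl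

theorem card_Bs : Nat.card hM.Bs = 21 := by
  rw [← N7_card]; exact hM.card_sub N7L N7_one N7_mul N7_inv N7_sub

/-- The standard normalisers of Klein four-groups. -/
def Ms {VL KL : List (List ℕ)} (hD : KData VL KL) : Subgroup G :=
  Subgroup.normalizer ((hM.sub VL hD.one hD.mul hD.inv hD.sub : Subgroup G) : Set G)

theorem mem_Ms [Finite G] {VL KL : List (List ℕ)} (hD : KData VL KL) (g : G) :
    g ∈ hM.Ms hD ↔ QN VL (c g) = true :=
  hM.mem_normalizer_iff _ VL hD.sub (fun _ => Iff.rfl) g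

theorem card_Ms [Finite G] {VL KL : List (List ℕ)} (hD : KData VL KL) :
    Nat.card (hM.Ms hD) = 24 := by
  rw [← hD.ncard]; exact hM.card_normalizer _ VL hD.sub (fun _ => Iff.rfl)

theorem equiv_Ms [Finite G] {VL KL : List (List ℕ)} (hD : KData VL KL) :
    Nonempty (↥(hM.Ms hD) ≃* Equiv.Perm (Fin 4)) :=
  hM.normalizer_equiv hD _ (fun _ => Iff.rfl)

theorem Bs_conj (u : G) : (hM.conj u).Bs = hM.Bs.map (MulAut.conj u).toMonoidHom := by
  ext y
  rw [max_mem_map_conj]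
  exact Iff.rfl

theorem Ms_conj [Finite G] {VL KL : List (List ℕ)} (hD : KData VL KL) (u : G) :
    (hM.conj u).Ms hD = (hM.Ms hD).map (MulAut.conj u).toMonoidHom := by
  ext y
  rw [max_mem_map_conj, mem_Ms, mem_Ms]

theorem Ms_conj_conj [Finite G] {VL KL : List (List ℕ)} (hD : KData VL KL) (u v : G) :
    ((hM.conj u).conj v).Ms hD = (hM.conj (v * u)).Ms hD := by
  ext y
  rw [mem_Ms, mem_Ms]
  have : u⁻¹ * (v⁻¹ * y * v) * u = (v * u)⁻¹ * y * (v * u) := by group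
  show QN VL (c (u⁻¹ * (v⁻¹ * y * v) * u)) = true ↔ QN VL (c ((v * u)⁻¹ * y * (v * u))) = true
  rw [this]

theorem max_words (M : Subgroup G) (x y : G) (hx : x ∈ M) (hy : y ∈ M) :
    ∀ W ∈ wordsL (c x) (c y), ∃ w ∈ M, c w = W := by
  intro W hW
  simp only [wordsL, List.mem_cons, List.not_mem_nil, or_false] at hW
  rcases hW with rfl | rfl | rfl | rfl | rfl | rfl | rfl | rfl
  · exact ⟨y, hy, rfl⟩
  · exact ⟨x * y, M.mul_mem hx hy, by simp only [hM.mul]⟩
  · exact ⟨x * x * y, M.mul_mem (M.mul_mem hx hx) hy, by simp only [hM.mul]⟩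
  · exact ⟨x * x * x * y, M.mul_mem (M.mul_mem (M.mul_mem hx hx) hx) hy, by simp only [hM.mul]⟩
  · exact ⟨x * x * x * x * y, M.mul_mem (M.mul_mem (M.mul_mem (M.mul_mem hx hx) hx) hx) hy,
      by simp only [hM.mul]⟩
  · exact ⟨x * x * y * y * y, M.mul_mem (M.mul_mem (M.mul_mem (M.mul_mem hx hx) hy) hy) hy,
      by simp only [hM.mul]⟩
  · exact ⟨x * x * y * x * y * y,
      M.mul_mem (M.mul_mem (M.mul_mem (M.mul_mem (M.mul_mem hx hx) hy) hx) hy) hy,
      by simp only [hM.mul]⟩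
  · exact ⟨x * y * x * y * y * y,
      M.mul_mem (M.mul_mem (M.mul_mem (M.mul_mem (M.mul_mem hx hy) hx) hy) hy) hy,
      by simp only [hM.mul]⟩

theorem max_word_order (M : Subgroup G) (x y : G) (hx : x ∈ M) (hy : y ∈ M) (k : ℕ)
    (hk : (wordsL (c x) (c y)).any (fun W => ordL W == k) = true) :
    ∃ w ∈ M, orderOf w = k := by
  rw [List.any_eq_true] at hk
  obtain ⟨W, hW, hWk⟩ := hk
  obtain ⟨w, hw, rfl⟩ := hM.max_words M x y hx hy W hW
  exact ⟨w, hw, by rw [hM.orderOf_eq]; exact beq_iff_eq.mp hWk⟩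

theorem max_conj_to (x : G) (X Z : List ℕ) (hX : X ∈ T168) (hZ : Z ∈ T168)
    (h : compL Z (c x) = compL X Z) : ∃ w : G, c (w⁻¹ * x * w) = X := by
  obtain ⟨z, rfl⟩ := hM.surj Z hZ
  obtain ⟨r, rfl⟩ := hM.surj X hX
  rw [← hM.mul, ← hM.mul] at h
  have h' := hM.inj h
  refine ⟨z⁻¹, ?_⟩
  have : z⁻¹⁻¹ * x * z⁻¹ = r := by rw [inv_inv, h']; group
  rw [this]

theorem max_caseA [Finite G] [IsSimpleGroup G] (h : Nat.card G = 168) (M : Subgroup G)
    (hMc : IsCoatom M) (x : G) (hx : x ∈ M) (hx7 : orderOf x = 7)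
    (hxc : c x = X7 ∨ c x = X7') : M = hM.Bs := by
  have hne : hM.Bs ≠ ⊤ := by
    intro htop
    have := hM.card_Bs
    rw [htop, Subgroup.card_top, h] at this
    omega
  have hle : M ≤ hM.Bs := by
    intro y hy
    show c y ∈ N7L
    have hcov : c y ∈ N7L ∨
        ((wordsL (c x) (c y)).any (fun W => ordL W == 3) = true ∧
        (wordsL (c x) (c y)).any (fun W => ordL W == 4) = true) := by
      rcases hxc with hw | hw
      · rw [hw]; exact cover7 _ (hM.mem _)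
      · rw [hw]; exact cover7' _ (hM.mem _)
    rcases hcov with h1 | ⟨h3, h4⟩
    · exact h1
    · exfalso
      obtain ⟨a, ha, ha3⟩ := hM.max_word_order M x y hx hy 3 h3
      obtain ⟨b, hb, hb4⟩ := hM.max_word_order M x y hx hy 4 h4
      exact max_no347 h M hMc x a b hx ha hb hx7 ha3 hb4
  exact ((hMc.le_iff_eq hne).mp hle).symm

theorem max_caseB [Finite G] [IsSimpleGroup G] (h : Nat.card G = 168) (M : Subgroup G)
    (hMc : IsCoatom M) (x : G) (hx : x ∈ M) (hxR : c x = R3)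
    (hno7 : ¬ ∃ y ∈ M, orderOf y = 7) :
    ∃ g : G, M = (hM.conj g).Ms kdata1 ∨ M = (hM.conj g).Ms kdata2 := by
  obtain ⟨g1, hg1⟩ := hM.surj CL CD_inv.2.2.2.2.1
  obtain ⟨g1i, hg1i⟩ := hM.surj CiL CD_inv.2.2.2.2.2.1
  obtain ⟨g2, hg2⟩ := hM.surj DL CD_inv.2.2.2.2.2.2.1
  obtain ⟨g2i, hg2i⟩ := hM.surj DiL CD_inv.2.2.2.2.2.2.2
  have e1 : g1i = g1⁻¹ := by
    apply eq_inv_of_mul_eq_one_left
    rw [← hM.eq_one_iff, hM.mul, hg1, hg1i]; exact CD_inv.1
  have e2 : g2i = g2⁻¹ := by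
    apply eq_inv_of_mul_eq_one_left
    rw [← hM.eq_one_iff, hM.mul, hg2, hg2i]; exact CD_inv.2.2.1
  have hcov : ∀ y ∈ M, y ∈ (hM.conj g1).Ms kdata1 ∨ y ∈ (hM.conj g2).Ms kdata2 := by
    intro y hy
    rw [mem_Ms, mem_Ms]
    rcases cover3 (c y) (hM.mem y) with hc | hc | hc
    · left
      show QN V1L (c (g1⁻¹ * y * g1)) = true
      rw [hM.mul, hM.mul, ← e1, hg1, hg1i]; exact hc
    · right
      show QN V2L (c (g2⁻¹ * y * g2)) = true
      rw [hM.mul, hM.mul, ← e2, hg2, hg2i]; exact hc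
    · exfalso
      rw [← hxR] at hc
      obtain ⟨a, ha, ha7⟩ := hM.max_word_order M x y hx hy 7 hc
      exact hno7 ⟨a, ha, ha7⟩
  have hne : ∀ {VL KL : List (List ℕ)} (hD : KData VL KL) (g : G), (hM.conj g).Ms hD ≠ ⊤ := by
    intro VL KL hD g htop
    have := (hM.conj g).card_Ms hD
    rw [htop, Subgroup.card_top, h] at this
    omega
  rcases max_union M _ _ hcov with hle | hle
  · exact ⟨g1, Or.inl ((hMc.le_iff_eq (hne kdata1 g1)).mp hle).symm⟩
  · exact ⟨g2, Or.inr ((hMc.le_iff_eq (hne kdata2 g2)).mp hle).symm⟩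

theorem max_caseC [Finite G] [IsSimpleGroup G] (h : Nat.card G = 168) (M : Subgroup G)
    (hMc : IsCoatom M) : ∃ x ∈ M, orderOf x = 7 ∨ orderOf x = 3 := by
  by_contra hcon
  push Not at hcon
  have hp : IsPGroup 2 M := by
    intro g
    refine ⟨2, ?_⟩
    have hv := ordL_vals (c g.1) (hM.mem g.1)
    rw [← hM.orderOf_eq] at hv
    have hg := hcon g.1 g.2
    have hd : orderOf g.1 ∣ 4 := by
      rcases hv with hv | hv | hv | hv | hv
      · rw [hv]; norm_num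
      · rw [hv]; norm_num
      · exact absurd hv hg.2
      · rw [hv]
      · exact absurd hv hg.1
    apply Subtype.ext
    have := orderOf_dvd_iff_pow_eq_one.mp hd
    simpa using this
  obtain ⟨T, hT⟩ := hp.exists_le_sylow
  obtain ⟨c', hM', hT'⟩ := hM.exists_model_sylow2 h T
  have hTle : (T : Subgroup G) ≤ hM'.Ms kdata1 := by
    intro t ht
    rw [mem_Ms]
    exact T0_in_N1 _ ((hT' t).mp ht)
  have hne : hM'.Ms kdata1 ≠ ⊤ := by
    intro htop
    have := hM'.card_Ms kdata1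
    rw [htop, Subgroup.card_top, h] at this
    omega
  have heq : hM'.Ms kdata1 = M := (hMc.le_iff_eq hne).mp (hT.trans hTle)
  have hcard : Nat.card M = 24 := by rw [← heq]; exact hM'.card_Ms kdata1
  have hTcard : Nat.card (T : Subgroup G) = 2 ^ 3 := by
    rw [Sylow.card_eq_multiplicity, h, fact168_2]
  have hdvd := Subgroup.card_dvd_of_le hT
  rw [hcard, hTcard] at hdvd
  omega

theorem max_class [Finite G] [IsSimpleGroup G] (h : Nat.card G = 168) (M : Subgroup G)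
    (hMc : IsCoatom M) :
    ∃ u : G, M = (hM.conj u).Bs ∨ M = (hM.conj u).Ms kdata1 ∨ M = (hM.conj u).Ms kdata2 := by
  by_cases h7 : ∃ x ∈ M, orderOf x = 7
  · obtain ⟨x, hx, hx7⟩ := h7
    obtain ⟨Z, hZ, hZe⟩ := conj7 (c x) (hM.mem x) (by rw [← hM.orderOf_eq, hx7])
    have hw : ∃ w : G, c (w⁻¹ * x * w) = X7 ∨ c (w⁻¹ * x * w) = X7' := by
      rcases hZe with hZe | hZe
      · obtain ⟨w, hw⟩ := hM.max_conj_to x X7 Z X7_mem hZ hZe
        exact ⟨w, Or.inl hw⟩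
      · obtain ⟨w, hw⟩ := hM.max_conj_to x X7' Z X7'_mem hZ hZe
        exact ⟨w, Or.inr hw⟩
    obtain ⟨w, hw⟩ := hw
    exact ⟨w, Or.inl ((hM.conj w).max_caseA h M hMc x hx hx7 hw)⟩
  · obtain ⟨x, hx, hx73⟩ := hM.max_caseC h M hMc
    have hx3 : orderOf x = 3 := hx73.resolve_left (fun h' => h7 ⟨x, hx, h'⟩)
    obtain ⟨Z, hZ, hZe⟩ := conj3 (c x) (hM.mem x) (by rw [← hM.orderOf_eq, hx3])
    obtain ⟨w, hw⟩ := hM.max_conj_to x R3 Z R3_mem hZ hZe
    obtain ⟨g, hg⟩ := (hM.conj w).max_caseB h M hMc x hx hw h7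
    refine ⟨g * w, Or.inr ?_⟩
    rw [← hM.Ms_conj_conj, ← hM.Ms_conj_conj]
    exact hg

end Model

end Cfsg.Agent.Helper29.Zas.M168
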