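import Mathlib
import Cfsg.Agent.Helper29.Zas.M168Facts

set_option autoImplicit false

open Cfsg.Agent.Helper29.Zas.M168 in
theorem Cfsg.Agent.Helper29.Zas.M168.class7_aux {G : Type*} [Group G] [Finite G] {c : G → List ℕ}
    (hM : Model G c) (x : G) (hx0 : orderOf x = 7) :
    Nat.card {g : G // IsConj x g} = 24 ∧ ¬ IsConj x x⁻¹ := by
  have hx := hx0
  rw [hM.orderOf_eq] at hx
  obtain ⟨x7, hx7⟩ := hM.surj X7 X7_mem
  obtain ⟨x7', hx7'⟩ := hM.surj X7' X7'_mem
  have hf : ∀ g : G, f7 (c g) = true ↔ IsConj g x7 := by
    intro g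
    constructor
    · intro h
      unfold f7 at h
      rw [List.any_eq_true] at h
      obtain ⟨X, hX, hXe⟩ := h
      rw [beq_iff_eq, ← hx7] at hXe
      exact hM.isConj_of hX hXe
    · intro h
      obtain ⟨X, hX, hXe⟩ := hM.of_isConj h
      unfold f7
      rw [List.any_eq_true]
      exact ⟨X, hX, by rw [beq_iff_eq, hXe, hx7]⟩
  have hord : ∀ g : G, IsConj x g → ordL (c g) = 7 := by
    intro g hg
    rw [isConj_iff] at hg
    obtain ⟨y, rfl⟩ := hg
    rw [← hM.orderOf_eq]
    have : orderOf (y * x * y⁻¹) = orderOf x := by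
      have := MulEquiv.orderOf_eq (MulAut.conj y) x
      simpa [MulAut.conj_apply] using this
    rw [this, hx0]
  constructor
  · by_cases hfx : f7 (c x) = true
    · have hxc : IsConj x x7 := (hf x).mp hfx
      rw [hM.card_subtype (fun g => IsConj x g) (fun L => ordL L == 7 && f7 L) ?_]
      · exact class7a
      · intro g
        constructor
        · intro hg
          rw [Bool.and_eq_true, beq_iff_eq]
          exact ⟨hord g hg, (hf g).mpr (hg.symm.trans hxc)⟩
        · intro hg
          rw [Bool.and_eq_true] at hg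
          exact hxc.trans ((hf g).mp hg.2).symm
    · have hfx' : f7 (c x) = false := by simpa using hfx
      obtain ⟨X, hX, hXe⟩ := class7c _ (hM.mem x) hx hfx'
      rw [← hx7'] at hXe
      have hxc : IsConj x x7' := hM.isConj_of hX hXe
      rw [hM.card_subtype (fun g => IsConj x g) (fun L => ordL L == 7 && !f7 L) ?_]
      · exact class7b
      · intro g
        constructor
        · intro hg
          rw [Bool.and_eq_true, beq_iff_eq]
          refine ⟨hord g hg, ?_⟩
          by_contra hcon
          have : f7 (c g) = true := by simpa using hcon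
          exact hfx ((hf x).mpr (hg.trans ((hf g).mp this)))
        · intro hg
          rw [Bool.and_eq_true, beq_iff_eq] at hg
          have hg2 : f7 (c g) = false := by simpa using hg.2
          obtain ⟨Y, hY, hYe⟩ := class7c _ (hM.mem g) hg.1 hg2
          rw [← hx7'] at hYe
          exact hxc.trans (hM.isConj_of hY hYe).symm
  · intro hcon
    obtain ⟨X, hX, hXe⟩ := hM.of_isConj hcon
    have hxinv : c x⁻¹ = powL (c x) 6 := by
      rw [← hM.pow]
      congr 1
      apply inv_eq_of_mul_eq_one_right
      rw [← pow_succ']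
      show x ^ 7 = 1
      rw [← hx0, pow_orderOf_eq_one]
    exact class7e _ (hM.mem x) hx X hX (by rw [hXe, hxinv])

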