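import Mathlib
import Cfsg.Agent.Helper29.Zas.Final

set_option autoImplicit false

namespace Cfsg.Agent.Helper29.Zas

def tests11 : List (ℕ × ℕ × ℕ × Bool × ℕ) :=
  [(1, 0, 0, false, 1), (1, 1, 0, false, 2), (1, 2, 0, false, 1), (3, 0, 0, false, 1), (4, 0, 0, false, 1), (5, 0, 0, false, 1), (9, 0, 0, false, 1), (1, 1, 5, true, 1), (1, 1, 10, true, 3), (1, 1, 5, true, 2)]

set_option maxRecDepth 100000 in
theorem chk11 : allChk 11 5 6 tests11 [] = true := by decide +kernel

set_option maxRecDepth 100000 in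
theorem num11 : numOK 11 5 4 2 6 tests11 = true := by decide +kernel

set_option maxRecDepth 100000 in
theorem syl11 : ∀ m, m ∣ (11 + 1) * 5 → m % 11 = 1 → m = 1 ∨ m = 11 + 1 := by
  intro m hm h
  have hle : m ≤ 60 := Nat.le_of_dvd (by norm_num) hm
  have key : ∀ m, m ≤ 60 → m ∣ 60 → m % 11 = 1 → m = 1 ∨ m = 12 := by decide +kernel
  exact key m hle hm h

/-- Any two simple groups of order 660 are isomorphic. -/
theorem iso11 {G : Type*} [Group G] [Finite G] [IsSimpleGroup G] (hcard : Nat.card G = 660)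
    {G' : Type*} [Group G'] [Finite G'] [IsSimpleGroup G'] (hcard' : Nat.card G' = 660) :
    Nonempty (G ≃* G') :=
  haveI : Fact (Nat.Prime 11) := ⟨by norm_num⟩
  iso_of_cert 11 5 4 2 6 tests11 [] (by norm_num) (by norm_num) chk11 num11 syl11
    (Or.inl rfl) (by rw [hcard]) (by rw [hcard'])

end Cfsg.Agent.Helper29.Zas
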