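import Mathlib
import Cfsg.Agent.Helper29.Zas.Final

set_option autoImplicit false

namespace Cfsg.Agent.Helper29.Zas

def tests13 : List (ℕ × ℕ × ℕ × Bool × ℕ) :=
  [(1, 1, 0, false, 1), (1, 2, 0, false, 1), (1, 4, 0, false, 1), (1, 3, 0, false, 2), (1, 1, 4, true, 1), (1, 1, 11, true, 3), (1, 0, 0, false, 1), (1, 2, 0, false, 2), (1, 1, 4, true, 2)]

set_option maxRecDepth 100000 in
theorem chk13 : allChk 13 6 7 tests13 [] = true := by decide +kernel

set_option maxRecDepth 100000 in
theorem num13 : numOK 13 6 4 2 7 tests13 = true := by decide +kernel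

set_option maxRecDepth 100000 in
theorem syl13 : ∀ m, m ∣ (13 + 1) * 6 → m % 13 = 1 → m = 1 ∨ m = 13 + 1 := by
  intro m hm h
  have hle : m ≤ 84 := Nat.le_of_dvd (by norm_num) hm
  have key : ∀ m, m ≤ 84 → m ∣ 84 → m % 13 = 1 → m = 1 ∨ m = 14 := by decide +kernel
  exact key m hle hm h

/-- Any two simple groups of order 1092 are isomorphic. -/
theorem iso13 {G : Type*} [Group G] [Finite G] [IsSimpleGroup G] (hcard : Nat.card G = 1092)
    {G' : Type*} [Group G'] [Finite G'] [IsSimpleGroup G'] (hcard' : Nat.card G' = 1092) :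
    Nonempty (G ≃* G') :=
  haveI : Fact (Nat.Prime 13) := ⟨by norm_num⟩
  iso_of_cert 13 6 4 2 7 tests13 [] (by norm_num) (by norm_num) chk13 num13 syl13
    (Or.inl rfl) (by rw [hcard]) (by rw [hcard'])

end Cfsg.Agent.Helper29.Zas
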