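import Mathlib
import Cfsg.Agent.Helper29.Zas.Final

set_option autoImplicit false

namespace Cfsg.Agent.Helper29.Zas

def tests7 : List (ℕ × ℕ × ℕ × Bool × ℕ) := [(1, 0, 0, false, 1)]

set_option maxRecDepth 100000 in
theorem chk7 : allChk 7 3 5 tests7 [1] = true := by decide +kernel

set_option maxRecDepth 100000 in
theorem num7 : numOK 7 3 2 3 5 tests7 = true := by decide +kernel

theorem syl7 : ∀ m, m ∣ (7 + 1) * 3 → m % 7 = 1 → m = 1 ∨ m = 7 + 1 := by
  intro m hm h
  have hle : m ≤ 24 := Nat.le_of_dvd (by norm_num) hm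
  have key : ∀ m, m ≤ 24 → m ∣ 24 → m % 7 = 1 → m = 1 ∨ m = 8 := by decide
  exact key m hle hm h

/-- Any two simple groups of order 168 are isomorphic. -/
theorem iso7 {G : Type*} [Group G] [Finite G] [IsSimpleGroup G] (hcard : Nat.card G = 168)
    {G' : Type*} [Group G'] [Finite G'] [IsSimpleGroup G'] (hcard' : Nat.card G' = 168) :
    Nonempty (G ≃* G') :=
  haveI : Fact (Nat.Prime 7) := ⟨by norm_num⟩
  iso_of_cert 7 3 2 3 5 tests7 [1] (by norm_num) (by norm_num) chk7 num7 syl7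
    (Or.inr ⟨rfl, by norm_num, by norm_num, by norm_num⟩) (by rw [hcard]) (by rw [hcard'])

end Cfsg.Agent.Helper29.Zas
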